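import Cfsg.Agent.H456.DM.Solv
import Cfsg.Agent.Schreier.Assembly
import Cfsg.Agent.S0000

/-!
# S4907, DM19 (a): normal subgroups of perfect groups are solvable, final form (helper456)
-/

set_option autoImplicit false

namespace Cfsg.Agent.H456.DM.SolvFin

open Subgroup

universe u

/-- **DM19 (a)** -/
theorem solvable_of {G : Type u} [Group G] [Finite G] (hG : Group.IsPerfect G) (M : Subgroup G) [M.Normal]
    (hno : ∀ (T : Type u) [Group T] [Finite T] [IsSimpleGroup T] (f : G →* T), Function.Surjective f →
      (¬ ∀ a b : T, a * b = b * a) → ¬ Nat.card T * Nat.card (G ⧸ M) ∣ Nat.card G)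
    (hbig : Nat.card G < 60 ^ 5 * Nat.card (G ⧸ M)) : Group.IsSolvable M := by
  refine Solv.solvable_of_sch ?_ hG M hno hbig
  intro K _ _ hK hna
  exact Schreier.Assembly.known K (fun h => hna h.is_comm.comm) S0000.result

end Cfsg.Agent.H456.DM.SolvFin
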